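import Mathlib

/-!
Helper library (helper5): a Fisher-type inequality for group actions.  If `L` is doubly transitive on
`X` and acts on a smaller set `Y`, every point stabiliser `L_y` is transitive on `X`.
-/

set_option autoImplicit false

namespace Cfsg.Agent.H5Fisher

open MulAction

theorem stab_trans {L X Y : Type*} [Group L] [MulAction L X] [MulAction L Y] [Fintype X] [Fintype Y]
    (h2 : IsMultiplyPretransitive L X 2) (hcard : Fintype.card Y < Fintype.card X) (y₀ : Y)
    (x₀ x : X) : ∃ l : L, l • x₀ = x ∧ l • y₀ = y₀ := by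
  classical
  have h2' : ∀ {a b c d : X}, a ≠ b → c ≠ d → ∃ g : L, g • a = c ∧ g • b = d :=
    is_two_pretransitive_iff.mp h2
  have h1' : ∀ a b : X, ∃ g : L, g • a = b := by
    intro a b
    by_cases hab : a = b
    · exact ⟨1, by rw [one_smul, hab]⟩
    · obtain ⟨g, hg, -⟩ := h2' hab (Ne.symm hab)
      exact ⟨g, hg⟩
  let N : X → Y → ℚ := fun x y => if ∃ l : L, l • x₀ = x ∧ l • y₀ = y then 1 else 0
  have hN : ∀ (g : L) x y, N (g • x) (g • y) = N x y := by
    intro g x y
    have : (∃ k : L, k • x₀ = g • x ∧ k • y₀ = g • y) ↔ ∃ k : L, k • x₀ = x ∧ k • y₀ = y := by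
      constructor
      · rintro ⟨k, h1, h4⟩
        refine ⟨g⁻¹ * k, ?_, ?_⟩
        · rw [mul_smul, h1, inv_smul_smul]
        · rw [mul_smul, h4, inv_smul_smul]
      · rintro ⟨k, h1, h4⟩
        refine ⟨g * k, ?_, ?_⟩
        · rw [mul_smul, h1]
        · rw [mul_smul, h4]
    simp only [N, this]
  have hN01 : ∀ x y, N x y = 0 ∨ N x y = 1 := by
    intro x y
    by_cases h : ∃ l : L, l • x₀ = x ∧ l • y₀ = y
    · right; exact if_pos h
    · left; exact if_neg h
  have hNsq : ∀ x y, N x y * N x y = N x y := by
    intro x y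
    rcases hN01 x y with h | h <;> rw [h] <;> norm_num
  have hNnn : ∀ x y, 0 ≤ N x y := by
    intro x y
    rcases hN01 x y with h | h <;> rw [h] <;> norm_num
  have hNle : ∀ x y, N x y ≤ 1 := by
    intro x y
    rcases hN01 x y with h | h <;> rw [h] <;> norm_num
  have hN00 : N x₀ y₀ = 1 := if_pos ⟨1, one_smul _ _, one_smul _ _⟩
  by_cases hx : x = x₀
  · exact ⟨1, by rw [one_smul, hx], one_smul _ _⟩
  obtain ⟨r, hr0⟩ : ∃ r, r = ∑ y, N x₀ y := ⟨_, rfl⟩
  have hr : ∀ x', ∑ y, N x' y = r := by
    intro x'
    obtain ⟨g, rfl⟩ := h1' x₀ x'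
    rw [hr0]
    symm
    apply Fintype.sum_equiv (MulAction.toPerm g)
    intro y
    exact (hN g x₀ y).symm
  obtain ⟨lam, hlam0⟩ : ∃ lam, lam = ∑ y, N x₀ y * N x y := ⟨_, rfl⟩
  have hlam : ∀ x' x'', x' ≠ x'' → ∑ y, N x' y * N x'' y = lam := by
    intro x' x'' hne
    obtain ⟨g, rfl, rfl⟩ := h2' (Ne.symm hx) hne
    rw [hlam0]
    symm
    apply Fintype.sum_equiv (MulAction.toPerm g)
    intro y
    rw [MulAction.toPerm_apply, hN, hN]
  have hlam_nn : 0 ≤ lam := by
    rw [hlam0]
    exact Finset.sum_nonneg (fun y _ => mul_nonneg (hNnn _ _) (hNnn _ _))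
  have hdiff : r - lam = ∑ y, N x₀ y * (1 - N x y) := by
    rw [hr0, hlam0, ← Finset.sum_sub_distrib]
    apply Finset.sum_congr rfl
    intro y _
    ring
  have hterm : ∀ y ∈ (Finset.univ : Finset Y), 0 ≤ N x₀ y * (1 - N x y) := fun y _ =>
    mul_nonneg (hNnn _ _) (sub_nonneg.mpr (hNle _ _))
  by_cases hrl : r - lam = 0
  · rw [hdiff, Finset.sum_eq_zero_iff_of_nonneg hterm] at hrl
    have h1 := hrl y₀ (Finset.mem_univ _)
    rw [hN00, one_mul, sub_eq_zero] at h1
    by_contra hcon
    have h4 : N x y₀ = 0 := if_neg hcon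
    rw [h4] at h1
    norm_num at h1
  · exfalso
    have hpos : 0 < r - lam := lt_of_le_of_ne (by rw [hdiff]; exact Finset.sum_nonneg hterm) (Ne.symm hrl)
    let T : (X → ℚ) →ₗ[ℚ] (Y → ℚ) :=
      { toFun := fun v y => ∑ x', N x' y * v x'
        map_add' := by
          intro v w
          funext y
          simp only [Pi.add_apply, mul_add, Finset.sum_add_distrib]
        map_smul' := by
          intro k v
          funext y
          simp only [Pi.smul_apply, smul_eq_mul, RingHom.id_apply, Finset.mul_sum]
          apply Finset.sum_congr rfl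
          intro x' _
          ring }
    have hT : Function.Injective T := by
      rw [injective_iff_map_eq_zero]
      intro v hv
      have key : ∀ x', (r - lam) * v x' + lam * ∑ x'', v x'' = 0 := by
        intro x'
        have h1 : ∑ y, N x' y * T v y = 0 := by
          rw [hv]; simp
        have h4 : ∑ y, N x' y * T v y = ∑ x'', v x'' * ∑ y, N x' y * N x'' y := by
          change ∑ y, N x' y * ∑ x'', N x'' y * v x'' = _
          simp only [Finset.mul_sum]
          rw [Finset.sum_comm]
          apply Finset.sum_congr rfl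
          intro x'' _
          apply Finset.sum_congr rfl
          intro y _
          ring
        have h5 : ∀ x'', v x'' * ∑ y, N x' y * N x'' y =
            lam * v x'' + (if x'' = x' then (r - lam) * v x' else 0) := by
          intro x''
          by_cases hxx : x'' = x'
          · rw [if_pos hxx, hxx]
            simp only [hNsq]
            rw [hr]
            ring
          · rw [if_neg hxx, hlam x' x'' (Ne.symm hxx)]
            ring
        rw [h4] at h1
        simp only [h5] at h1
        rw [Finset.sum_add_distrib, ← Finset.mul_sum, Finset.sum_ite_eq' Finset.univ x',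
          if_pos (Finset.mem_univ _)] at h1
        linarith
      have hsum : ((r - lam) + lam * Fintype.card X) * ∑ x'', v x'' = 0 := by
        have h1 : ∑ x', ((r - lam) * v x' + lam * ∑ x'', v x'') = 0 :=
          Finset.sum_eq_zero (fun x' _ => key x')
        rw [Finset.sum_add_distrib, ← Finset.mul_sum, Finset.sum_const, Finset.card_univ,
          nsmul_eq_mul] at h1
        linarith
      have hσ : ∑ x'', v x'' = 0 := by
        rcases mul_eq_zero.mp hsum with h1 | h1
        · exfalso
          have : 0 ≤ lam * (Fintype.card X : ℚ) := mul_nonneg hlam_nn (Nat.cast_nonneg _)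
          linarith
        · exact h1
      funext x'
      have h1 := key x'
      rw [hσ, mul_zero, add_zero] at h1
      rcases mul_eq_zero.mp h1 with h4 | h4
      · exact absurd h4 hrl
      · exact h4
    have := LinearMap.finrank_le_finrank_of_injective hT
    rw [Module.finrank_fintype_fun_eq_card, Module.finrank_fintype_fun_eq_card] at this
    omega

end Cfsg.Agent.H5Fisher
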