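import Mathlib
import Cfsg.Agent.H1.FrobCenter

set_option autoImplicit false

namespace Cfsg.Agent.H5FpfCyc

/-- An abelian group acting fixed-point-freely by automorphisms on a nontrivial finite additive
group is cyclic (external form of `Cfsg.H1.fpf_abelian_cyclic`). -/
theorem isCyclic_of_fpf {A V : Type*} [Group A] [Finite A] [IsMulCommutative A]
    [AddCommGroup V] [Finite V] [Nontrivial V] [DistribMulAction A V]
    (h : ∀ a : A, a ≠ 1 → ∀ v : V, a • v = v → v = 0) : IsCyclic A := by
  let φ : A →* MulAut (Multiplicative V) :=
    (MulAutMultiplicative V).symm.toMonoidHom.comp (DistribMulAction.toAddAut A V)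
  have hφ : ∀ (a : A) (v : V), φ a (Multiplicative.ofAdd v) = Multiplicative.ofAdd (a • v) :=
    fun a v => rfl
  let G := Multiplicative V ⋊[φ] A
  have : Finite G := Finite.of_equiv _ (SemidirectProduct.equivProd).symm
  let K : Subgroup G := (SemidirectProduct.inl : Multiplicative V →* G).range
  let B : Subgroup G := (SemidirectProduct.inr : A →* G).range
  have : K.Normal := by
    have : K = (SemidirectProduct.rightHom : G →* A).ker := SemidirectProduct.range_inl_eq_ker_rightHom
    rw [this]; infer_instance
  have hK : K ≠ ⊥ := by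
    intro hb
    obtain ⟨v, hv⟩ := exists_ne (0 : V)
    have h1 : (SemidirectProduct.inl (Multiplicative.ofAdd v) : G) ∈ K := ⟨_, rfl⟩
    rw [hb, Subgroup.mem_bot] at h1
    have h2 := congrArg SemidirectProduct.left h1
    simp only [SemidirectProduct.left_inl, SemidirectProduct.one_left] at h2
    exact hv h2
  have : IsMulCommutative B := by
    refine ⟨⟨?_⟩⟩
    rintro ⟨_, a, rfl⟩ ⟨_, b, rfl⟩
    apply Subtype.ext
    show (SemidirectProduct.inr a : G) * SemidirectProduct.inr b
      = SemidirectProduct.inr b * SemidirectProduct.inr a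
    rw [← map_mul, ← map_mul, mul_comm']
  have hfpf : ∀ x ∈ B, x ≠ 1 → K ⊓ Subgroup.centralizer {x} = ⊥ := by
    rintro _ ⟨a, rfl⟩ ha
    have ha1 : a ≠ 1 := by
      rintro rfl
      exact ha (map_one _)
    rw [eq_bot_iff]
    rintro _ ⟨⟨v, rfl⟩, hc⟩
    replace hc : (SemidirectProduct.inl v : G) ∈ Subgroup.centralizer {(SemidirectProduct.inr a : G)} := hc
    rw [Subgroup.mem_centralizer_singleton_iff] at hc
    have h2 := congrArg SemidirectProduct.left hc
    simp only [SemidirectProduct.mul_left, SemidirectProduct.left_inl, SemidirectProduct.left_inr,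
      SemidirectProduct.right_inl, SemidirectProduct.right_inr, map_one, one_mul, mul_one,
      MulAut.one_apply] at h2
    have h3 : a • (Multiplicative.toAdd v) = Multiplicative.toAdd v := by
      have := hφ a (Multiplicative.toAdd v)
      rw [ofAdd_toAdd] at this
      first
        | (rw [h2] at this; exact (Multiplicative.ofAdd.injective this).symm)
        | (rw [← h2] at this; exact (Multiplicative.ofAdd.injective this).symm)
    have h4 := h a ha1 _ h3
    rw [Subgroup.mem_bot]
    have : v = 1 := h4
    rw [this, map_one]
  have hB := Cfsg.H1.fpf_abelian_cyclic K B hK hfpf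
  exact isCyclic_of_surjective
    (MonoidHom.ofInjective (f := (SemidirectProduct.inr : A →* G)) SemidirectProduct.inr_injective).symm
    (MulEquiv.surjective _)

end Cfsg.Agent.H5FpfCyc
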