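import Mathlib

set_option autoImplicit false

namespace Cfsg.Agent.H5Golay24

open Finset

variable {ι : Type*} [Fintype ι] [DecidableEq ι]

/-- support of a binary word -/
def S (u : ι → ZMod 2) : Finset ι := univ.filter (fun i => u i ≠ 0)

theorem card_S (u : ι → ZMod 2) : (S u).card = hammingNorm u := rfl

theorem zmod2_cases : ∀ x : ZMod 2, x = 0 ∨ x = 1 := by decide

/-- binary words correspond to subsets -/
def suppEquiv : (ι → ZMod 2) ≃ Finset ι where
  toFun := S
  invFun s := fun i => if i ∈ s then 1 else 0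
  left_inv u := by
    funext i
    simp only [S, mem_filter, mem_univ, true_and]
    rcases zmod2_cases (u i) with h | h <;> simp [h]
  right_inv s := by
    ext i
    simp only [S, mem_filter, mem_univ, true_and]
    by_cases h : i ∈ s <;> simp [h]

theorem sum_norm (g : ℕ → ℕ) :
    ∑ u : ι → ZMod 2, g (hammingNorm u)
      = ∑ m ∈ range (Fintype.card ι + 1), (Fintype.card ι).choose m * g m := by
  have h1 : ∑ u : ι → ZMod 2, g (hammingNorm u) = ∑ s : Finset ι, g s.card :=
    Fintype.sum_equiv suppEquiv _ _ (fun u => rfl)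
  rw [h1]
  have h2 := Finset.sum_powerset_apply_card g (x := (univ : Finset ι))
  rw [Finset.powerset_univ] at h2
  rw [h2]
  simp [Finset.card_univ]

theorem S_sub_subset (u v : ι → ZMod 2) : S (u - v) ⊆ S u ∪ S v := by
  intro i hi
  simp only [S, mem_filter, mem_univ, true_and, mem_union, Pi.sub_apply] at hi ⊢
  by_contra hcon
  push Not at hcon
  apply hi
  rw [hcon.1, hcon.2, sub_zero]

open Classical in
/-- the words of weight at most 4 in the coset of `w` -/
noncomputable def T (C : Submodule (ZMod 2) (ι → ZMod 2)) (w : ι → ZMod 2) : Finset (ι → ZMod 2) :=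
  univ.filter (fun u => u - w ∈ C ∧ hammingNorm u ≤ 4)

theorem mem_T (C : Submodule (ZMod 2) (ι → ZMod 2)) (w u : ι → ZMod 2) :
    u ∈ T C w ↔ u - w ∈ C ∧ hammingNorm u ≤ 4 := by
  simp [T]

def wt (n : ℕ) : ℕ := if n ≤ 3 then 6 else 1

theorem pair (C : Submodule (ZMod 2) (ι → ZMod 2))
    (hmin : ∀ w ∈ C, w ≠ 0 → 8 ≤ hammingNorm w) (w u u' : ι → ZMod 2)
    (hu : u ∈ T C w) (hu' : u' ∈ T C w) (hne : u ≠ u') :
    hammingNorm u = 4 ∧ hammingNorm u' = 4 ∧ Disjoint (S u) (S u') := by
  rw [mem_T] at hu hu'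
  have hd : u - u' ∈ C := by
    have := C.sub_mem hu.1 hu'.1
    rwa [sub_sub_sub_cancel_right] at this
  have h8 := hmin _ hd (sub_ne_zero.mpr hne)
  have h1 := card_le_card (S_sub_subset u u')
  have h2 := card_union_add_card_inter (S u) (S u')
  have h3 := hu.2
  have h4 := hu'.2
  rw [← card_S] at h8 h3 h4 ⊢
  rw [← card_S]
  refine ⟨by omega, by omega, ?_⟩
  rw [disjoint_iff_inter_eq_empty, ← card_eq_zero]
  omega

theorem f_le (hι : Fintype.card ι = 24) (C : Submodule (ZMod 2) (ι → ZMod 2))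
    (hmin : ∀ w ∈ C, w ≠ 0 → 8 ≤ hammingNorm w) (w : ι → ZMod 2) :
    ∑ u ∈ T C w, wt (hammingNorm u) ≤ 6 := by
  by_cases h : ∃ u ∈ T C w, hammingNorm u ≤ 3
  · obtain ⟨u, hu, h3⟩ := h
    have hT : T C w = {u} := by
      rw [eq_singleton_iff_unique_mem]
      refine ⟨hu, fun x hx => ?_⟩
      by_contra hne
      have := pair C hmin w x u hx hu hne
      omega
    rw [hT, sum_singleton]
    simp [wt, h3]
  · push Not at h
    have h4 : ∀ u ∈ T C w, hammingNorm u = 4 := by
      intro u hu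
      have h1 := h u hu
      have h2 := ((mem_T C w u).mp hu).2
      omega
    have h5 : ∑ u ∈ T C w, wt (hammingNorm u) = (T C w).card := by
      rw [card_eq_sum_ones]
      apply sum_congr rfl
      intro u hu
      rw [h4 u hu]; rfl
    rw [h5]
    have h6 : ((T C w).biUnion S).card = ∑ u ∈ T C w, (S u).card := by
      apply card_biUnion
      intro x hx y hy hxy
      exact (pair C hmin w x y hx hy hxy).2.2
    have h7 : ∑ u ∈ T C w, (S u).card = (T C w).card * 4 := by
      rw [sum_const_nat]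
      intro u hu
      rw [card_S, h4 u hu]
    have h8 : ((T C w).biUnion S).card ≤ 24 := by
      rw [← hι]; exact card_le_univ _
    omega

theorem total (hι : Fintype.card ι = 24) (C : Submodule (ZMod 2) (ι → ZMod 2))
    (hcard : Nat.card C = 4096) :
    ∑ w : ι → ZMod 2, ∑ u ∈ T C w, wt (hammingNorm u) = 6 * 2 ^ 24 := by
  classical
  have h1 : ∀ w : ι → ZMod 2, ∑ u ∈ T C w, wt (hammingNorm u)
      = ∑ u : ι → ZMod 2, if u - w ∈ C ∧ hammingNorm u ≤ 4 then wt (hammingNorm u) else 0 := by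
    intro w
    unfold T
    rw [sum_filter]
  rw [sum_congr rfl (fun w _ => h1 w), sum_comm]
  have h2 : ∀ u : ι → ZMod 2,
      ∑ w : ι → ZMod 2, (if u - w ∈ C ∧ hammingNorm u ≤ 4 then wt (hammingNorm u) else 0)
        = 4096 * (if hammingNorm u ≤ 4 then wt (hammingNorm u) else 0) := by
    intro u
    by_cases h4 : hammingNorm u ≤ 4
    · simp only [h4, and_true, if_true]
      rw [← sum_filter, sum_const, smul_eq_mul]
      congr 1
      rw [← hcard]
      have : Nat.card {w : ι → ZMod 2 // u - w ∈ C} = Nat.card C :=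
        Nat.card_congr ⟨fun w => ⟨u - w.1, w.2⟩, fun c => ⟨u - c.1, by simp⟩,
          fun w => by simp, fun c => by simp⟩
      rw [← this, Nat.card_eq_fintype_card, Fintype.card_subtype]
    · simp [h4]
  rw [sum_congr rfl (fun u _ => h2 u), ← mul_sum]
  have h3 := sum_norm (ι := ι) (fun n => if n ≤ 4 then wt n else 0)
  rw [h3, hι]
  decide +kernel

theorem f_eq (hι : Fintype.card ι = 24) (C : Submodule (ZMod 2) (ι → ZMod 2))
    (hcard : Nat.card C = 4096)
    (hmin : ∀ w ∈ C, w ≠ 0 → 8 ≤ hammingNorm w) (w : ι → ZMod 2) :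
    ∑ u ∈ T C w, wt (hammingNorm u) = 6 := by
  have h1 : ∑ w : ι → ZMod 2, ∑ u ∈ T C w, wt (hammingNorm u) = ∑ _w : ι → ZMod 2, 6 := by
    rw [total hι C hcard, sum_const, card_univ, Fintype.card_fun, hι, ZMod.card]
    simp [mul_comm]
  exact (sum_eq_sum_iff_of_le (fun w _ => f_le hι C hmin w)).mp h1 w (mem_univ w)

/-- Coset leaders of a binary `[24, 12, 8]` code. -/
theorem coset_leaders (hι : Fintype.card ι = 24) (C : Submodule (ZMod 2) (ι → ZMod 2))
    (hcard : Nat.card C = 4096)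
    (hmin : ∀ w ∈ C, w ≠ 0 → 8 ≤ hammingNorm w) (w : ι → ZMod 2) :
    (∃ u, T C w = {u} ∧ hammingNorm u ≤ 3) ∨
    ((T C w).card = 6 ∧ ∀ u ∈ T C w, hammingNorm u = 4 ∧
      ∀ u' ∈ T C w, u ≠ u' → Disjoint (S u) (S u')) := by
  have hf := f_eq hι C hcard hmin w
  by_cases h : ∃ u ∈ T C w, hammingNorm u ≤ 3
  · left
    obtain ⟨u, hu, h3⟩ := h
    refine ⟨u, ?_, h3⟩
    rw [eq_singleton_iff_unique_mem]
    refine ⟨hu, fun x hx => ?_⟩
    by_contra hne
    have := pair C hmin w x u hx hu hne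
    omega
  · right
    push Not at h
    have h4 : ∀ u ∈ T C w, hammingNorm u = 4 := by
      intro u hu
      have h1 := h u hu
      have h2 := ((mem_T C w u).mp hu).2
      omega
    have h5 : ∑ u ∈ T C w, wt (hammingNorm u) = (T C w).card := by
      rw [card_eq_sum_ones]
      apply sum_congr rfl
      intro u hu
      rw [h4 u hu]; rfl
    refine ⟨by rw [← h5, hf], fun u hu => ⟨h4 u hu, fun u' hu' hne => ?_⟩⟩
    exact (pair C hmin w u u' hu hu' hne).2.2

end Cfsg.Agent.H5Golay24
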