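import Mathlib
import Cfsg.Agent.H5.Golay24

set_option autoImplicit false
set_option linter.unusedSectionVars false

namespace Cfsg.Agent.H5Golay24

open Finset

variable {ι : Type*} [Fintype ι] [DecidableEq ι]

theorem S_sub (u v : ι → ZMod 2) : S (u - v) = (S u ∪ S v) \ (S u ∩ S v) := by
  ext i
  simp only [S, mem_filter, mem_univ, true_and, mem_union, mem_sdiff, mem_inter, Pi.sub_apply]
  rcases zmod2_cases (u i) with h | h <;> rcases zmod2_cases (v i) with h' | h' <;> simp [h, h']

theorem norm_sub (u v : ι → ZMod 2) :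
    hammingNorm (u - v) + 2 * (S u ∩ S v).card = hammingNorm u + hammingNorm v := by
  rw [← card_S, ← card_S, ← card_S, S_sub]
  have h1 : (S u ∩ S v) ⊆ (S u ∪ S v) := inter_subset_left.trans subset_union_left
  have h2 := card_sdiff_add_card_eq_card h1
  have h3 := card_union_add_card_inter (S u) (S v)
  omega

theorem S_indicator (s : Finset ι) : S (suppEquiv.symm s : ι → ZMod 2) = s :=
  suppEquiv.right_inv s

theorem octad_exists (hι : Fintype.card ι = 24) (C : Submodule (ZMod 2) (ι → ZMod 2))
    (hcard : Nat.card C = 4096)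
    (hmin : ∀ w ∈ C, w ≠ 0 → 8 ≤ hammingNorm w) (s : Finset ι) (hs : s.card = 5) :
    ∃ c ∈ C, hammingNorm c = 8 ∧ s ⊆ S c := by
  set u : ι → ZMod 2 := suppEquiv.symm s with hu
  have hSu : S u = s := S_indicator s
  have hnu : hammingNorm u = 5 := by rw [← card_S, hSu, hs]
  rcases coset_leaders hι C hcard hmin u with ⟨v, hv, h3⟩ | ⟨h6, h⟩
  · have hvT : v ∈ T C u := by rw [hv]; exact mem_singleton_self v
    have hvC := ((mem_T C u v).mp hvT).1
    have hne : v - u ≠ 0 := by
      intro h0
      rw [sub_eq_zero.mp h0] at h3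
      omega
    have h8 := hmin _ hvC hne
    have h9 := norm_sub v u
    have hint : (S v ∩ S u).card = 0 := by omega
    refine ⟨v - u, hvC, by omega, ?_⟩
    rw [S_sub, card_eq_zero.mp hint, sdiff_empty, hSu]
    exact subset_union_right
  · exfalso
    have hU : ((T C u).biUnion S).card = ∑ v ∈ T C u, (S v).card := by
      apply card_biUnion
      intro x hx y hy hxy
      exact (h x hx).2 y hy hxy
    have hU2 : ∑ v ∈ T C u, (S v).card = 6 * 4 := by
      rw [← h6]
      apply sum_const_nat
      intro v hv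
      rw [card_S]
      exact (h v hv).1
    have hU3 : (T C u).biUnion S = univ := by
      apply eq_univ_of_card
      rw [hU, hU2, hι]
    obtain ⟨i, hi⟩ : s.Nonempty := by
      rw [← card_pos, hs]; norm_num
    have hi' : i ∈ (T C u).biUnion S := by rw [hU3]; exact mem_univ _
    obtain ⟨v, hvT, hiv⟩ := mem_biUnion.mp hi'
    have hvC := ((mem_T C u v).mp hvT).1
    have h4 := (h v hvT).1
    have hne : v - u ≠ 0 := by
      intro h0
      rw [sub_eq_zero.mp h0] at h4
      omega
    have h8 := hmin _ hvC hne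
    have h9 := norm_sub v u
    have hint : 0 < (S v ∩ S u).card := by
      rw [card_pos]
      exact ⟨i, mem_inter.mpr ⟨hiv, by rw [hSu]; exact hi⟩⟩
    omega

theorem octad_unique (C : Submodule (ZMod 2) (ι → ZMod 2))
    (hmin : ∀ w ∈ C, w ≠ 0 → 8 ≤ hammingNorm w) (s : Finset ι) (hs : s.card = 5)
    (c c' : ι → ZMod 2) (hc : c ∈ C) (hc' : c' ∈ C) (h8 : hammingNorm c = 8)
    (h8' : hammingNorm c' = 8) (hsc : s ⊆ S c) (hsc' : s ⊆ S c') : c = c' := by
  by_contra hne
  have h1 := hmin _ (C.sub_mem hc hc') (sub_ne_zero.mpr hne)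
  have h2 := norm_sub c c'
  have h3 : s.card ≤ (S c ∩ S c').card := card_le_card (subset_inter hsc hsc')
  omega

/-- every codeword is a sum of octads -/
theorem mem_span_octads (hι : Fintype.card ι = 24) (C : Submodule (ZMod 2) (ι → ZMod 2))
    (hcard : Nat.card C = 4096)
    (hmin : ∀ w ∈ C, w ≠ 0 → 8 ≤ hammingNorm w) :
    ∀ (n : ℕ) (c : ι → ZMod 2), c ∈ C → hammingNorm c ≤ n →
      c ∈ Submodule.span (ZMod 2) {w : ι → ZMod 2 | w ∈ C ∧ hammingNorm w = 8} := by
  intro n
  induction n with
  | zero =>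
    intro c _ h0
    have : c = 0 := hammingNorm_eq_zero.mp (Nat.le_zero.mp h0)
    rw [this]; exact Submodule.zero_mem _
  | succ n ih =>
    intro c hc hn
    by_cases h0 : c = 0
    · rw [h0]; exact Submodule.zero_mem _
    have h8 := hmin c hc h0
    obtain ⟨s, hsc, hs⟩ := exists_subset_card_eq (s := S c) (n := 5) (by rw [card_S]; omega)
    obtain ⟨o, hoC, ho8, hso⟩ := octad_exists hι C hcard hmin s hs
    have h2 := norm_sub c o
    have h3 : s.card ≤ (S c ∩ S o).card := card_le_card (subset_inter hsc hso)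
    have h4 := ih (c - o) (C.sub_mem hc hoC) (by omega)
    have h5 : o ∈ Submodule.span (ZMod 2) {w : ι → ZMod 2 | w ∈ C ∧ hammingNorm w = 8} :=
      Submodule.subset_span ⟨hoC, ho8⟩
    have := Submodule.add_mem _ h4 h5
    rwa [sub_add_cancel] at this

end Cfsg.Agent.H5Golay24
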