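import Mathlib
import Cfsg.Agent.H5.SylConj

namespace Cfsg.Agent.H5Homocyc

open Finset

/-- An automorphism of odd order of an abelian 2-group that fixes all involutions is trivial. -/
theorem aut_trivial {X : Type*} [CommGroup X] (h2 : IsPGroup 2 X) (α : MulAut X) (k : ℕ) (hk : Odd k)
    (hαk : α ^ k = 1) (hfix : ∀ z : X, z ^ 2 = 1 → α z = z) : α = 1 := by
  have : Fact (Nat.Prime 2) := ⟨Nat.prime_two⟩
  let ν : X → X := fun x => ∏ i ∈ range k, (α ^ i) x
  have hν_mul : ∀ x y, ν (x * y) = ν x * ν y := by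
    intro x y
    simp only [ν, map_mul, Finset.prod_mul_distrib]
  have hν_inv : ∀ x, ν x⁻¹ = (ν x)⁻¹ := by
    intro x
    simp only [ν, map_inv, Finset.prod_inv_distrib]
  have hν_pow : ∀ x (n : ℕ), ν (x ^ n) = (ν x) ^ n := by
    intro x n
    simp only [ν, map_pow, Finset.prod_pow]
  have hν_α : ∀ x, ν (α x) = ν x := by
    intro x
    have h1 := Finset.prod_range_succ' (fun i => (α ^ i) x) k
    have h2 := Finset.prod_range_succ (fun i => (α ^ i) x) k
    rw [h1] at h2
    simp only [hαk, pow_zero, MulAut.one_apply] at h2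
    have h3 := mul_right_cancel h2
    show ∏ i ∈ range k, (α ^ i) (α x) = ∏ i ∈ range k, (α ^ i) x
    rw [← h3]
    apply Finset.prod_congr rfl
    intro i _
    rw [pow_succ, MulAut.mul_apply]
  ext x
  rw [MulAut.one_apply]
  by_contra hne
  set y := x⁻¹ * α x with hy
  have hy1 : y ≠ 1 := by
    intro h
    apply hne
    rw [hy, inv_mul_eq_one] at h
    exact h.symm
  have hνy : ν y = 1 := by
    rw [hy, hν_mul, hν_inv, hν_α, inv_mul_cancel]
  obtain ⟨c, hc⟩ := h2.dvd_orderOf hy1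
  have hpos : 0 < orderOf y := by
    obtain ⟨j, hj⟩ := (IsPGroup.iff_orderOf.1 h2) y
    rw [hj]; positivity
  set z := y ^ c with hz
  have hz1 : z ≠ 1 := by
    apply pow_ne_one_of_lt_orderOf
    · omega
    · omega
  have hz2 : z ^ 2 = 1 := by
    rw [hz, ← pow_mul, mul_comm, ← hc, pow_orderOf_eq_one]
  have hαz : ∀ i : ℕ, (α ^ i) z = z := by
    intro i
    induction i with
    | zero => simp
    | succ i ih => rw [pow_succ, MulAut.mul_apply, hfix z hz2, ih]
  have hνz : ν z = z ^ k := by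
    show ∏ i ∈ range k, (α ^ i) z = z ^ k
    rw [Finset.prod_congr rfl (fun i _ => hαz i), Finset.prod_const, Finset.card_range]
  have hνz' : ν z = 1 := by rw [hz, hν_pow, hνy, one_pow]
  obtain ⟨j, hj⟩ := hk
  apply hz1
  rw [← hνz', hνz, hj, pow_succ, pow_mul, hz2, one_pow, one_mul]

/-- If moreover there are at most three involutions, a nontrivial automorphism of odd order permutes
them transitively, and there are three distinct ones. -/
theorem aut_trans {X : Type*} [CommGroup X] (h2 : IsPGroup 2 X) (u v w : X)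
    (huvw : ∀ x : X, x ^ 2 = 1 → x = 1 ∨ x = u ∨ x = v ∨ x = w)
    (α : MulAut X) (k : ℕ) (hk : Odd k) (hαk : α ^ k = 1) (hα : α ≠ 1) :
    (∀ s t : X, s ≠ 1 → s ^ 2 = 1 → t ≠ 1 → t ^ 2 = 1 → ∃ i : ℕ, (α ^ i) s = t) ∧
    (∀ s : X, s ≠ 1 → s ^ 2 = 1 → α s ≠ s) ∧
    (∀ s : X, s ≠ 1 → s ^ 2 = 1 → α (α (α s)) = s) := by
  classical
  obtain ⟨z, hz2, hαz⟩ : ∃ z : X, z ^ 2 = 1 ∧ α z ≠ z := by
    by_contra hcon
    push Not at hcon
    exact hα (aut_trivial h2 α k hk hαk hcon)
  have hz1 : z ≠ 1 := by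
    rintro rfl
    exact hαz (map_one α)
  have hααz : α (α z) ≠ z := by
    intro h
    apply hαz
    obtain ⟨j, hj⟩ := hk
    have h3 : ∀ i : ℕ, (α ^ (2 * i)) z = z := by
      intro i
      induction i with
      | zero => simp
      | succ i ih =>
        rw [mul_add, mul_one, pow_add, MulAut.mul_apply, pow_two, MulAut.mul_apply, h, ih]
    have h4 : (α ^ k) z = α z := by
      rw [hj, pow_succ', MulAut.mul_apply, h3]
    rw [← h4, hαk, MulAut.one_apply]
  have hinv : ∀ x : X, x ≠ 1 → x ^ 2 = 1 → x ∈ ({u, v, w} : Finset X) := by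
    intro x hx1 hx2
    rcases huvw x hx2 with h | h | h | h
    · exact absurd h hx1
    · simp [h]
    · simp [h]
    · simp [h]
  have hα1 : ∀ x : X, x ≠ 1 → α x ≠ 1 := by
    intro x hx h
    exact hx (α.injective (by rw [h, map_one]))
  have hα2 : ∀ x : X, x ^ 2 = 1 → (α x) ^ 2 = 1 := by
    intro x hx
    rw [← map_pow, hx, map_one]
  have hT : ({z, α z, α (α z)} : Finset X) = {u, v, w} := by
    apply Finset.eq_of_subset_of_card_le
    · intro x hx
      simp only [Finset.mem_insert, Finset.mem_singleton] at hx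
      rcases hx with rfl | rfl | rfl
      · exact hinv _ hz1 hz2
      · exact hinv _ (hα1 _ hz1) (hα2 _ hz2)
      · exact hinv _ (hα1 _ (hα1 _ hz1)) (hα2 _ (hα2 _ hz2))
    · have h3 : ({z, α z, α (α z)} : Finset X).card = 3 := by
        rw [Finset.card_eq_three]
        refine ⟨z, α z, α (α z), hαz.symm, hααz.symm, ?_, rfl⟩
        intro h
        exact hαz (α.injective h).symm
      rw [h3]
      exact Finset.card_le_three
  have hmem : ∀ x : X, x ≠ 1 → x ^ 2 = 1 → x = z ∨ x = α z ∨ x = α (α z) := by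
    intro x hx1 hx2
    have := hinv x hx1 hx2
    rw [← hT] at this
    simpa using this
  have hααα : α (α (α z)) = z := by
    rcases hmem _ (hα1 _ (hα1 _ (hα1 _ hz1))) (hα2 _ (hα2 _ (hα2 _ hz2))) with h | h | h
    · exact h
    · exact absurd (α.injective h) hααz
    · exact absurd (α.injective (α.injective h)) hαz
  refine ⟨?_, ?_, ?_⟩
  · intro s t hs1 hs2 ht1 ht2
    rcases hmem s hs1 hs2 with rfl | rfl | rfl <;> rcases hmem t ht1 ht2 with rfl | rfl | rfl
    · exact ⟨0, by simp⟩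
    · exact ⟨1, by simp⟩
    · exact ⟨2, by simp [pow_two]⟩
    · exact ⟨2, by simp [pow_two, hααα]⟩
    · exact ⟨0, by simp⟩
    · exact ⟨1, by simp⟩
    · exact ⟨1, by simp [hααα]⟩
    · exact ⟨2, by simp [pow_two, hααα]⟩
    · exact ⟨0, by simp⟩
  · intro s hs1 hs2
    rcases hmem s hs1 hs2 with rfl | rfl | rfl
    · exact hαz
    · intro h; exact hαz (α.injective h)
    · intro h; exact hαz (α.injective (α.injective h))
  · intro s hs1 hs2
    rcases hmem s hs1 hs2 with rfl | rfl | rfl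
    · exact hααα
    · rw [hααα]
    · rw [hααα]

theorem zmod_two_mul {m : ℕ} (hm : 1 ≤ m) (a : ZMod (2 ^ m)) (h : a + a = 0) :
    a = 0 ∨ a = ((2 ^ (m - 1) : ℕ) : ZMod (2 ^ m)) := by
  have : NeZero (2 ^ m) := ⟨by positivity⟩
  have h1 : ((a.val + a.val : ℕ) : ZMod (2 ^ m)) = 0 := by
    rw [Nat.cast_add, ZMod.natCast_zmod_val, h]
  rw [ZMod.natCast_eq_zero_iff] at h1
  have h2 : a.val < 2 ^ m := ZMod.val_lt a
  obtain ⟨c, hc⟩ := h1
  obtain ⟨n, rfl⟩ : ∃ n, m = n + 1 := ⟨m - 1, by omega⟩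
  rw [Nat.add_sub_cancel]
  have hc2 : c < 2 := by
    by_contra hcon
    push Not at hcon
    have : 2 ^ (n + 1) * 2 ≤ 2 ^ (n + 1) * c := Nat.mul_le_mul_left _ hcon
    omega
  interval_cases c
  · left
    have : a.val = 0 := by omega
    exact (ZMod.val_eq_zero a).1 this
  · right
    have hp : 2 ^ (n + 1) = 2 ^ n * 2 := pow_succ 2 n
    have : a.val = 2 ^ n := by omega
    rw [← this, ZMod.natCast_zmod_val]

theorem mem_sylow_of_normalizer {G : Type*} [Group G] {p : ℕ} [Fact p.Prime] (P : Sylow p G) (x : G)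
    (hx : x ∈ Subgroup.normalizer ((P : Subgroup G) : Set G)) (a : ℕ) (hxa : x ^ p ^ a = 1) :
    x ∈ (P : Subgroup G) := by
  have hQ : IsPGroup p (Subgroup.zpowers x) := by
    rintro ⟨y, hy⟩
    obtain ⟨j, rfl⟩ := hy
    refine ⟨a, Subtype.ext ?_⟩
    show (x ^ j) ^ p ^ a = 1
    rw [← zpow_natCast, ← zpow_mul, mul_comm, zpow_mul, zpow_natCast, hxa, one_zpow]
  have h := hQ.inf_normalizer_sylow P
  have h1 : x ∈ Subgroup.zpowers x ⊓ Subgroup.normalizer ((P : Subgroup G) : Set G) :=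
    ⟨Subgroup.mem_zpowers x, hx⟩
  have h2 : x ∈ Subgroup.zpowers x ⊓ (P : Subgroup G) := h ▸ h1
  exact h2.2

theorem core {G : Type*} [Group G] [Finite G] (P : Sylow 2 G) (m : ℕ) (hm : 1 ≤ m)
    (e : (P : Subgroup G) ≃* Multiplicative (ZMod (2 ^ m) × ZMod (2 ^ m)))
    (x : G) (hx : x ∈ Subgroup.normalizer ((P : Subgroup G) : Set G))
    (hxc : x ∉ Subgroup.centralizer ((P : Subgroup G) : Set G)) :
    (∀ s t : G, s ∈ (P : Subgroup G) → t ∈ (P : Subgroup G) → orderOf s = 2 → orderOf t = 2 →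
      ∃ i : ℕ, x ^ i * s * (x ^ i)⁻¹ = t) ∧
    (∀ s ∈ (P : Subgroup G), orderOf s = 2 → x * s * x⁻¹ ≠ s) ∧
    (∀ s ∈ (P : Subgroup G), orderOf s = 2 → x ^ 3 * s * (x ^ 3)⁻¹ = s) := by
  have : Fact (Nat.Prime 2) := ⟨Nat.prime_two⟩
  set A := Multiplicative (ZMod (2 ^ m) × ZMod (2 ^ m)) with hA
  have hcomm : ∀ a b : (P : Subgroup G), a * b = b * a := by
    intro a b
    apply e.injective
    rw [map_mul, map_mul, mul_comm]
  set x' : Subgroup.normalizer ((P : Subgroup G) : Set G) := ⟨x, hx⟩ with hx'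
  set α : MulAut A := MulAut.congr e ((P : Subgroup G).normalizerMonoidHom x') with hα
  have hαpow : ∀ (i : ℕ) (y : (P : Subgroup G)),
      (α ^ i) (e y) = e ((P : Subgroup G).normalizerMonoidHom (x' ^ i) y) := by
    intro i y
    rw [hα, ← map_pow, ← map_pow]
    simp [MulAut.congr]
  have hval : ∀ (i : ℕ) (y : (P : Subgroup G)),
      (((P : Subgroup G).normalizerMonoidHom (x' ^ i) y : (P : Subgroup G)) : G) = x ^ i * y * (x ^ i)⁻¹ := by
    intro i y
    rfl
  have hα1 : α ≠ 1 := by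
    intro h
    apply hxc
    have h1 : (P : Subgroup G).normalizerMonoidHom x' = 1 := by
      apply (MulAut.congr e).injective
      rw [map_one]
      exact h
    have h2 : x' ∈ ((P : Subgroup G).normalizerMonoidHom).ker := h1
    rw [Subgroup.normalizerMonoidHom_ker, Subgroup.mem_subgroupOf] at h2
    exact h2
  obtain ⟨a, k, hk, hak⟩ := Nat.exists_eq_two_pow_mul_odd (orderOf_pos x).ne'
  have hαk : α ^ k = 1 := by
    have h1 : x ^ k ∈ (P : Subgroup G) := by
      apply mem_sylow_of_normalizer P (x ^ k) (Subgroup.pow_mem _ hx k) a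
      rw [← pow_mul, mul_comm, ← hak, pow_orderOf_eq_one]
    have h2 : x' ^ k ∈ ((P : Subgroup G).normalizerMonoidHom).ker := by
      rw [Subgroup.normalizerMonoidHom_ker, Subgroup.mem_subgroupOf, Subgroup.mem_centralizer_iff]
      intro y hy
      have := congrArg Subtype.val (hcomm ⟨y, hy⟩ ⟨x ^ k, h1⟩)
      simpa [hx'] using this
    rw [hα, ← map_pow, ← map_pow, (MonoidHom.mem_ker).1 h2, map_one]
  have hA2 : IsPGroup 2 A := P.2.of_equiv e
  set h : ZMod (2 ^ m) := ((2 ^ (m - 1) : ℕ) : ZMod (2 ^ m)) with hh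
  have huvw : ∀ y : A, y ^ 2 = 1 → y = 1 ∨ y = Multiplicative.ofAdd (h, 0) ∨
      y = Multiplicative.ofAdd (0, h) ∨ y = Multiplicative.ofAdd (h, h) := by
    intro y hy
    have h1 : Multiplicative.toAdd y + Multiplicative.toAdd y = 0 := by
      have := congrArg Multiplicative.toAdd hy
      rw [pow_two] at this
      exact this
    have h2 := zmod_two_mul hm (Multiplicative.toAdd y).1 (congrArg Prod.fst h1)
    have h3 := zmod_two_mul hm (Multiplicative.toAdd y).2 (congrArg Prod.snd h1)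
    rcases h2 with h2 | h2 <;> rcases h3 with h3 | h3
    · left; exact Multiplicative.toAdd.injective (Prod.ext h2 h3)
    · right; right; left; exact Multiplicative.toAdd.injective (Prod.ext h2 h3)
    · right; left; exact Multiplicative.toAdd.injective (Prod.ext h2 h3)
    · right; right; right; exact Multiplicative.toAdd.injective (Prod.ext h2 h3)
  obtain ⟨ht1, ht2, ht3⟩ := aut_trans hA2 _ _ _ huvw α k hk hαk hα1
  have hinv : ∀ s (hs : s ∈ (P : Subgroup G)), orderOf s = 2 → e ⟨s, hs⟩ ≠ 1 ∧ (e ⟨s, hs⟩) ^ 2 = 1 := by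
    intro s hs ho
    constructor
    · intro h1
      have h2 : (⟨s, hs⟩ : (P : Subgroup G)) = 1 := e.injective (by rw [h1, map_one])
      have h3 : s = 1 := congrArg Subtype.val h2
      rw [h3, orderOf_one] at ho
      omega
    · rw [← map_pow]
      have : (⟨s, hs⟩ : (P : Subgroup G)) ^ 2 = 1 := by
        apply Subtype.ext
        show s ^ 2 = 1
        rw [← ho, pow_orderOf_eq_one]
      rw [this, map_one]
  refine ⟨?_, ?_, ?_⟩
  · intro s t hs ht hso hto
    obtain ⟨i, hi⟩ := ht1 _ _ (hinv s hs hso).1 (hinv s hs hso).2 (hinv t ht hto).1 (hinv t ht hto).2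
    refine ⟨i, ?_⟩
    rw [hαpow] at hi
    have := congrArg Subtype.val (e.injective hi)
    rw [hval] at this
    exact this
  · intro s hs hso hcon
    apply ht2 _ (hinv s hs hso).1 (hinv s hs hso).2
    have h1 := hαpow 1 ⟨s, hs⟩
    rw [pow_one] at h1
    rw [h1]
    congr 1
    apply Subtype.ext
    rw [hval]
    simpa using hcon
  · intro s hs hso
    have h1 := ht3 _ (hinv s hs hso).1 (hinv s hs hso).2
    have h2 := hαpow 3 ⟨s, hs⟩
    have h3 : (α ^ 3) (e ⟨s, hs⟩) = α (α (α (e ⟨s, hs⟩))) := by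
      rw [pow_succ, pow_two, MulAut.mul_apply, MulAut.mul_apply]
    rw [h3, h1] at h2
    have := congrArg Subtype.val (e.injective h2)
    rw [hval] at this
    exact this.symm

end Cfsg.Agent.H5Homocyc
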