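import Mathlib

/-!
Helper library (helper5): enumeration of small subgroups of `GL(2, ZMod p)` by explicit lists of
codes (4-tuples of naturals), with checks that are evaluated by `decide`.
-/

set_option autoImplicit false

namespace Cfsg.Agent.H5Mat2

/-- code of a 2 x 2 matrix -/
structure M2 where
  a : ℕ
  b : ℕ
  c : ℕ
  d : ℕ
  deriving DecidableEq

namespace M2

def mul (p : ℕ) (x y : M2) : M2 :=
  ⟨(x.a * y.a + x.b * y.c) % p, (x.a * y.b + x.b * y.d) % p,
   (x.c * y.a + x.d * y.c) % p, (x.c * y.b + x.d * y.d) % p⟩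

def one : M2 := ⟨1, 0, 0, 1⟩

def toMat (p : ℕ) (x : M2) : Matrix (Fin 2) (Fin 2) (ZMod p) :=
  !![(x.a : ZMod p), (x.b : ZMod p); (x.c : ZMod p), (x.d : ZMod p)]

theorem toMat_one (p : ℕ) : toMat p one = 1 := by
  ext i j; fin_cases i <;> fin_cases j <;> simp [toMat, one]

theorem toMat_mul (p : ℕ) (x y : M2) : toMat p (mul p x y) = toMat p x * toMat p y := by
  simp only [toMat, mul, Matrix.mul_fin_two, ZMod.natCast_mod]
  push_cast
  rfl

def red (p : ℕ) (x : M2) : Bool :=
  decide (x.a < p) && decide (x.b < p) && decide (x.c < p) && decide (x.d < p)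

theorem toMat_inj {p : ℕ} {x y : M2} (hx : red p x = true) (hy : red p y = true)
    (h : toMat p x = toMat p y) : x = y := by
  simp only [red, Bool.and_eq_true, decide_eq_true_eq] at hx hy
  obtain ⟨⟨⟨hxa, hxb⟩, hxc⟩, hxd⟩ := hx
  obtain ⟨⟨⟨hya, hyb⟩, hyc⟩, hyd⟩ := hy
  have key : ∀ m n : ℕ, m < p → n < p → (m : ZMod p) = (n : ZMod p) → m = n := by
    intro m n hm hn hmn
    have := (ZMod.natCast_eq_natCast_iff' m n p).mp hmn
    rwa [Nat.mod_eq_of_lt hm, Nat.mod_eq_of_lt hn] at this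
  have h00 := congrFun (congrFun h 0) 0
  have h01 := congrFun (congrFun h 0) 1
  have h10 := congrFun (congrFun h 1) 0
  have h11 := congrFun (congrFun h 1) 1
  simp only [toMat, Matrix.of_apply, Matrix.cons_val_zero, Matrix.cons_val_one,
    Matrix.cons_val', Matrix.cons_val_fin_one] at h00 h01 h10 h11
  cases x; cases y
  simp only [M2.mk.injEq]
  exact ⟨key _ _ hxa hya h00, key _ _ hxb hyb h01, key _ _ hxc hyc h10, key _ _ hxd hyd h11⟩

/-- every element of the list is `one` or a generator times a later element -/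
def chk (p : ℕ) (gens : List M2) : List M2 → Bool
  | [] => true
  | t :: rest =>
    (decide (t = one) || gens.any (fun g => rest.any (fun t' => decide (mul p g t' = t)))) &&
      chk p gens rest

theorem chk_ind {p : ℕ} {gens : List M2} (P : M2 → Prop) (h1 : P one)
    (hg : ∀ g ∈ gens, ∀ t, P t → P (mul p g t)) :
    ∀ L : List M2, chk p gens L = true → ∀ t ∈ L, P t := by
  intro L
  induction L with
  | nil => intro _ t ht; simp at ht
  | cons s rest ih =>
    intro h t ht
    simp only [chk, Bool.and_eq_true, Bool.or_eq_true, decide_eq_true_eq, List.any_eq_true] at h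
    obtain ⟨h2, h3⟩ := h
    have ih' := ih h3
    rcases List.mem_cons.mp ht with rfl | ht'
    · rcases h2 with h2 | ⟨g, hgm, t', ht', h4⟩
      · rw [h2]; exact h1
      · rw [← h4]; exact hg g hgm t' (ih' t' ht')
    · exact ih' t ht'

def closed (p : ℕ) (gens L : List M2) : Bool :=
  gens.all (fun g => L.all (fun t => decide (mul p g t ∈ L)))

theorem closed_iff {p : ℕ} {gens L : List M2} (h : closed p gens L = true) :
    ∀ g ∈ gens, ∀ t ∈ L, mul p g t ∈ L := by
  simpa only [closed, List.all_eq_true, decide_eq_true_eq] using h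

def hasInv (p : ℕ) (gens invs : List M2) : Bool :=
  gens.all (fun c => invs.any (fun c' => decide (mul p c' c = one)))

def detm1 (p : ℕ) (t : M2) : ℕ :=
  ((t.a + (p - 1)) * (t.d + (p - 1)) + (p - 1) * (t.b * t.c)) % p

theorem detm1_cast {p : ℕ} [hp : Fact p.Prime] (t : M2) :
    ((detm1 p t : ℕ) : ZMod p) = (toMat p t - 1).det := by
  have h1 : ((p - 1 : ℕ) : ZMod p) = -1 := by
    rw [Nat.cast_sub hp.out.one_le, ZMod.natCast_self]; simp
  simp only [detm1, ZMod.natCast_mod, toMat, Matrix.det_fin_two]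
  push_cast
  rw [h1]
  simp
  ring

theorem det_ne_zero_of_detm1 {p : ℕ} [hp : Fact p.Prime] {t : M2} (h : detm1 p t ≠ 0) :
    (toMat p t - 1).det ≠ 0 := by
  rw [← detm1_cast, Ne, ZMod.natCast_eq_zero_iff]
  intro hd
  have hlt : detm1 p t < p := Nat.mod_lt _ hp.out.pos
  exact h (Nat.eq_zero_of_dvd_of_lt hd hlt)

def srchk (p : ℕ) (L : List M2) : Bool :=
  L.all (fun t => decide (t = one) || decide (detm1 p t ≠ 0))

end M2

open M2

variable {p : ℕ} [hp : Fact p.Prime]

local notation "GLp" => Matrix.GeneralLinearGroup (Fin 2) (ZMod p)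
local notation "Mp" => Matrix (Fin 2) (Fin 2) (ZMod p)

theorem closure_sub (S : Set GLp) (PM : Mp → Prop) (h1 : PM 1)
    (hmul : ∀ g ∈ S, ∀ M, PM M → PM ((g : Mp) * M))
    (hinv : ∀ g ∈ S, ∀ M, PM M → PM (((g⁻¹ : GLp) : Mp) * M)) :
    ∀ h ∈ Subgroup.closure S, PM (h : Mp) := by
  intro h hh
  induction hh using Subgroup.closure_induction_left with
  | one => exact h1
  | mul_left x hx y _ ih => exact hmul x hx _ ih
  | inv_mul_cancel x hx y _ ih => exact hinv x hx _ ih

theorem inv_code {g : GLp} {c c' : M2} (hc : toMat p c = (g : Mp)) (h : mul p c' c = one) :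
    toMat p c' = ((g⁻¹ : GLp) : Mp) := by
  have h1 : toMat p c' * (g : Mp) = 1 := by
    rw [← hc, ← toMat_mul, h, toMat_one]
  have h2 : (g : Mp) * ((g⁻¹ : GLp) : Mp) = 1 := by
    rw [← Units.val_mul, mul_inv_cancel, Units.val_one]
  calc toMat p c' = toMat p c' * ((g : Mp) * ((g⁻¹ : GLp) : Mp)) := by rw [h2, mul_one]
    _ = ((g⁻¹ : GLp) : Mp) := by rw [← mul_assoc, h1, one_mul]

theorem closure_enum (S : Set GLp) (gens invs L : List M2)
    (hS : ∀ g ∈ S, ∃ c ∈ gens, toMat p c = (g : Mp))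
    (hS' : ∀ c ∈ gens, ∃ g ∈ S, toMat p c = (g : Mp))
    (hinv : hasInv p gens invs = true)
    (hone : one ∈ L)
    (hcl : closed p (gens ++ invs) L = true)
    (hchk : chk p gens L = true)
    (hred : L.all (red p) = true)
    (hnd : L.Nodup) :
    (∀ h : GLp, h ∈ Subgroup.closure S ↔ ∃ t ∈ L, toMat p t = (h : Mp)) ∧
    Nat.card (Subgroup.closure S) = L.length := by
  classical
  have hcl' := closed_iff hcl
  have hsub : ∀ h ∈ Subgroup.closure S, ∃ t ∈ L, toMat p t = (h : Mp) := by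
    apply closure_sub S (fun M => ∃ t ∈ L, toMat p t = M)
    · exact ⟨one, hone, toMat_one p⟩
    · rintro g hg M ⟨t, ht, rfl⟩
      obtain ⟨c, hc, hcg⟩ := hS g hg
      exact ⟨mul p c t, hcl' c (List.mem_append_left _ hc) t ht, by rw [toMat_mul, hcg]⟩
    · rintro g hg M ⟨t, ht, rfl⟩
      obtain ⟨c, hc, hcg⟩ := hS g hg
      simp only [hasInv, List.all_eq_true, List.any_eq_true, decide_eq_true_eq] at hinv
      obtain ⟨c', hc', hcc⟩ := hinv c hc
      exact ⟨mul p c' t, hcl' c' (List.mem_append_right _ hc') t ht,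
        by rw [toMat_mul, inv_code hcg hcc]⟩
  have hsup : ∀ t ∈ L, ∃ h ∈ Subgroup.closure S, toMat p t = (h : Mp) := by
    apply chk_ind (p := p) (gens := gens) (fun t => ∃ h ∈ Subgroup.closure S, toMat p t = (h : Mp)) _ _ L hchk
    · exact ⟨1, Subgroup.one_mem _, toMat_one p⟩
    · rintro c hc t ⟨h, hh, hth⟩
      obtain ⟨g, hg, hcg⟩ := hS' c hc
      exact ⟨g * h, Subgroup.mul_mem _ (Subgroup.subset_closure hg) hh,
        by rw [toMat_mul, hcg, hth, Units.val_mul]⟩
  have hiff : ∀ h : GLp, h ∈ Subgroup.closure S ↔ ∃ t ∈ L, toMat p t = (h : Mp) := by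
    intro h
    refine ⟨hsub h, ?_⟩
    rintro ⟨t, ht, hth⟩
    obtain ⟨h', hh', hth'⟩ := hsup t ht
    have : h = h' := Units.ext (hth.symm.trans hth')
    rw [this]; exact hh'
  refine ⟨hiff, ?_⟩
  have himg : (Units.val : GLp → Mp) '' (Subgroup.closure S : Set GLp) =
      toMat p '' (L.toFinset : Set M2) := by
    ext M
    constructor
    · rintro ⟨h, hh, rfl⟩
      obtain ⟨t, ht, hth⟩ := hsub h hh
      exact ⟨t, by simpa using ht, hth⟩
    · rintro ⟨t, ht, rfl⟩
      obtain ⟨h, hh, hth⟩ := hsup t (by simpa using ht)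
      exact ⟨h, hh, hth.symm⟩
  have h1 : Nat.card (Subgroup.closure S) = (Subgroup.closure S : Set GLp).ncard := rfl
  rw [h1, ← Set.ncard_image_of_injective _ (Units.val_injective), himg,
    Set.ncard_image_of_injOn, Set.ncard_coe_finset, List.toFinset_card_of_nodup hnd]
  intro x hx y hy hxy
  rw [List.all_eq_true] at hred
  exact toMat_inj (hred x (by simpa using hx)) (hred y (by simpa using hy)) hxy

theorem orbit_inj (H : Subgroup GLp)
    (hsr : ∀ h ∈ H, h ≠ 1 → ((h : Mp) - 1).det ≠ 0) (v : Fin 2 → ZMod p) (hv : v ≠ 0) :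
    Function.Injective (fun h : H => Matrix.mulVec ((h : GLp) : Mp) v) := by
  intro h k hhk
  have hhk' : Matrix.mulVec ((h : GLp) : Mp) v = Matrix.mulVec ((k : GLp) : Mp) v := hhk
  by_contra hne
  have h1 : (k⁻¹ * h : H) ≠ 1 := by
    intro h2
    exact hne (inv_mul_eq_one.mp h2).symm
  have h2 := hsr ((k⁻¹ * h : H) : GLp) (k⁻¹ * h).2 (fun h3 => h1 (Subtype.ext h3))
  apply hv
  apply Matrix.eq_zero_of_mulVec_eq_zero h2
  rw [Matrix.sub_mulVec, Matrix.one_mulVec, sub_eq_zero]
  rw [Subgroup.coe_mul, Units.val_mul, ← Matrix.mulVec_mulVec, hhk', Matrix.mulVec_mulVec,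
    ← Units.val_mul, Subgroup.coe_inv, inv_mul_cancel, Units.val_one, Matrix.one_mulVec]

theorem card_nonzero : Nat.card {w : Fin 2 → ZMod p // w ≠ 0} = p ^ 2 - 1 := by
  classical
  rw [Nat.card_eq_fintype_card, Fintype.card_subtype_compl, Fintype.card_subtype_eq,
    Fintype.card_fun, ZMod.card, Fintype.card_fin]

theorem mulVec_ne_zero (g : GLp) {v : Fin 2 → ZMod p} (hv : v ≠ 0) :
    Matrix.mulVec (g : Mp) v ≠ 0 := by
  intro h
  apply hv
  have : Matrix.mulVec ((g⁻¹ : GLp) : Mp) (Matrix.mulVec (g : Mp) v) = 0 := by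
    rw [h, Matrix.mulVec_zero]
  rwa [Matrix.mulVec_mulVec, ← Units.val_mul, inv_mul_cancel, Units.val_one,
    Matrix.one_mulVec] at this

theorem card_le_of_semiregular (H : Subgroup GLp)
    (hsr : ∀ h ∈ H, h ≠ 1 → ((h : Mp) - 1).det ≠ 0) : Nat.card H ≤ p ^ 2 - 1 := by
  rw [← card_nonzero (p := p)]
  have hv : (![1, 0] : Fin 2 → ZMod p) ≠ 0 := by
    intro h
    have := congrFun h 0
    simp at this
  apply Nat.card_le_card_of_injective
    (fun h : H => (⟨Matrix.mulVec ((h : GLp) : Mp) ![1, 0], mulVec_ne_zero _ hv⟩ :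
      {w : Fin 2 → ZMod p // w ≠ 0}))
  intro h k hhk
  exact orbit_inj H hsr _ hv (congrArg Subtype.val hhk)

theorem regular_of (H : Subgroup GLp)
    (hsr : ∀ h ∈ H, h ≠ 1 → ((h : Mp) - 1).det ≠ 0)
    (hcard : Nat.card H = p ^ 2 - 1) :
    ∀ v w : Fin 2 → ZMod p, v ≠ 0 → w ≠ 0 →
      ∃! h : H, Matrix.mulVec ((h : GLp) : Mp) v = w := by
  intro v w hv hw
  have hinj : Function.Injective (fun h : H =>
      (⟨Matrix.mulVec ((h : GLp) : Mp) v, mulVec_ne_zero _ hv⟩ : {w : Fin 2 → ZMod p // w ≠ 0})) := by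
    intro h k hhk
    exact orbit_inj H hsr _ hv (congrArg Subtype.val hhk)
  have hbij := hinj.bijective_of_nat_card_le (by rw [hcard, card_nonzero])
  obtain ⟨h, hh⟩ := hbij.2 ⟨w, hw⟩
  refine ⟨h, congrArg Subtype.val hh, fun k hk => ?_⟩
  apply hinj
  apply Subtype.ext
  exact hk.trans (congrArg Subtype.val hh).symm

end Cfsg.Agent.H5Mat2
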