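import Mathlib

/-!
Helper library (helper5): involutions in groups in which only the identity fixes three points.
-/

set_option autoImplicit false

namespace Cfsg.Agent.H5Zass

variable {G Ω : Type*} [Group G] [MulAction G Ω]

/-- conjugating an involution fixing two points to any pair of points -/
theorem exists_invol_pair (h2 : MulAction.IsMultiplyPretransitive G Ω 2)
    {t₀ : G} {a₀ b₀ : Ω} (hab₀ : a₀ ≠ b₀) (ht1 : t₀ ≠ 1) (ht2 : t₀ * t₀ = 1)
    (hta : t₀ • a₀ = a₀) (htb : t₀ • b₀ = b₀) {c e : Ω} (hce : c ≠ e) :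
    ∃ t : G, t ≠ 1 ∧ t * t = 1 ∧ t • c = c ∧ t • e = e := by
  rw [MulAction.is_two_pretransitive_iff] at h2
  obtain ⟨g, hg1, hg2⟩ := h2 hab₀ hce
  refine ⟨g * t₀ * g⁻¹, ?_, ?_, ?_, ?_⟩
  · intro h
    apply ht1
    have : t₀ = g⁻¹ * (g * t₀ * g⁻¹) * g := by group
    rw [this, h]; group
  · calc g * t₀ * g⁻¹ * (g * t₀ * g⁻¹) = g * (t₀ * t₀) * g⁻¹ := by group
      _ = 1 := by rw [ht2]; group
  · rw [mul_smul, mul_smul, ← hg1, inv_smul_smul, hta]
  · rw [mul_smul, mul_smul, ← hg2, inv_smul_smul, htb]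

/-- In a 2-transitive group where only the identity fixes three points and some involution fixes
two points: for a point `c` and two further points `a ≠ b` some involution fixes `c` and
interchanges `a`, `b`. -/
theorem exists_invol_swap [Finite Ω] (h2 : MulAction.IsMultiplyPretransitive G Ω 2)
    (h3 : ∀ g : G, ∀ a b c : Ω, a ≠ b → b ≠ c → a ≠ c → g • a = a → g • b = b → g • c = c → g = 1)
    {t₀ : G} {a₀ b₀ : Ω} (hab₀ : a₀ ≠ b₀) (ht1 : t₀ ≠ 1) (ht2 : t₀ * t₀ = 1)
    (hta : t₀ • a₀ = a₀) (htb : t₀ • b₀ = b₀) {a b c : Ω} (hac : a ≠ c) (hbc : b ≠ c) :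
    ∃ t : G, t ≠ 1 ∧ t * t = 1 ∧ t • c = c ∧ t • a = b ∧ t • b = a := by
  classical
  have hex : ∀ e : {e : Ω // e ≠ c}, ∃ t : G, t ≠ 1 ∧ t * t = 1 ∧ t • c = c ∧ t • (e : Ω) = e :=
    fun e => exists_invol_pair h2 hab₀ ht1 ht2 hta htb (Ne.symm e.2)
  choose T hT1 hT2 hTc hTe using hex
  have hne : ∀ e : {e : Ω // e ≠ c}, T e • a ≠ c := by
    intro e h
    apply hac
    have : T e • a = T e • c := by rw [h, hTc]
    exact smul_left_cancel _ this
  let φ : {e : Ω // e ≠ c} → {e : Ω // e ≠ c} := fun e => ⟨T e • a, hne e⟩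
  have hinj : Function.Injective φ := by
    intro e e' hee
    have hy : T e • a = T e' • a := congrArg Subtype.val hee
    by_cases hya : T e • a = a
    · -- a is fixed by both
      have h1 : (e : Ω) = a := by
        by_contra hne'
        exact hT1 e (h3 (T e) c e a (Ne.symm e.2) hne' (Ne.symm hac) (hTc e) (hTe e) hya)
      have h2' : (e' : Ω) = a := by
        by_contra hne'
        exact hT1 e' (h3 (T e') c e' a (Ne.symm e'.2) hne' (Ne.symm hac) (hTc e') (hTe e')
          (hy ▸ hya))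
      exact Subtype.ext (h1.trans h2'.symm)
    · set y := T e • a with hydef
      have hTy : T e • y = a := by rw [hydef, ← mul_smul, hT2, one_smul]
      have hTy' : T e' • y = a := by rw [hy, ← mul_smul, hT2, one_smul]
      have hu : T e' * T e = 1 := by
        apply h3 (T e' * T e) a y c (Ne.symm hya) (hne e) hac
        · rw [mul_smul, ← hydef, hTy']
        · rw [mul_smul, hTy, ← hy]
        · rw [mul_smul, hTc, hTc]
      have hTT : T e' = T e := by
        have h4 : T e' * T e * T e = T e := by rw [hu, one_mul]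
        rwa [mul_assoc, hT2, mul_one] at h4
      by_contra hne'
      have hne'' : (e : Ω) ≠ e' := fun h => hne' (Subtype.ext h)
      exact hT1 e (h3 (T e) c e e' (Ne.symm e.2) hne'' (Ne.symm e'.2) (hTc e) (hTe e)
        (hTT ▸ hTe e'))
  have hsurj : Function.Surjective φ := Finite.surjective_of_injective hinj
  obtain ⟨e, he⟩ := hsurj ⟨b, hbc⟩
  have he' : T e • a = b := congrArg Subtype.val he
  refine ⟨T e, hT1 e, hT2 e, hTc e, he', ?_⟩
  rw [← he', ← mul_smul, hT2, one_smul]

end Cfsg.Agent.H5Zass
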